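import Mathlib

/-! Poisson summation for Gaussians attached to a positive definite matrix. -/

set_option autoImplicit false

namespace Cfsg.Agent.L0.Th

open Complex Matrix
open scoped Real

variable {n : ℕ}

/-- the quadratic form of a matrix -/
def Qf {R : Type*} [CommRing R] (A : Matrix (Fin n) (Fin n) R) (w : Fin n → R) : R := w ⬝ᵥ A *ᵥ w

/-- the Schur complement of the first diagonal entry -/
def Sc {R : Type*} [Field R] (A : Matrix (Fin (n + 1)) (Fin (n + 1)) R) : Matrix (Fin n) (Fin n) R :=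
  of fun i j => A i.succ j.succ - A 0 i.succ * A 0 j.succ / A 0 0

theorem Sc_mulVec {R : Type*} [Field R] (A : Matrix (Fin (n + 1)) (Fin (n + 1)) R) (u : Fin n → R)
    (i : Fin n) : (Sc A *ᵥ u) i =
      ∑ j, A i.succ j.succ * u j - A 0 i.succ * (∑ j, A 0 j.succ * u j) / A 0 0 := by
  simp only [Sc, mulVec, dotProduct, of_apply, Finset.mul_sum, Finset.sum_div, ← Finset.sum_sub_distrib]
  exact Finset.sum_congr rfl fun j _ => by ring

theorem Qf_succ {R : Type*} [Field R] {A : Matrix (Fin (n + 1)) (Fin (n + 1)) R}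
    (hA : ∀ i j, A i j = A j i) (h0 : A 0 0 ≠ 0) (w : Fin (n + 1) → R) :
    Qf A w = (A 0 0 * w 0 + ∑ i : Fin n, A 0 i.succ * w i.succ) ^ 2 / A 0 0 +
      Qf (Sc A) fun i => w i.succ := by
  have h1 : Qf (Sc A) (fun i => w i.succ) = ∑ i : Fin n, w i.succ * ∑ j : Fin n, A i.succ j.succ * w j.succ -
      (∑ i : Fin n, A 0 i.succ * w i.succ) ^ 2 / A 0 0 := by
    simp only [Qf, dotProduct, Sc_mulVec, mul_sub, Finset.sum_sub_distrib]
    rw [sq, Finset.sum_mul, Finset.sum_div]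
    exact congrArg _ (Finset.sum_congr rfl fun j _ => by ring)
  have h2 : ∑ i : Fin n, w i.succ * (A i.succ 0 * w 0) = w 0 * ∑ i : Fin n, A 0 i.succ * w i.succ := by
    rw [Finset.mul_sum]
    exact Finset.sum_congr rfl fun j _ => by rw [hA]; ring
  rw [h1]
  simp only [Qf, mulVec, dotProduct, Fin.sum_univ_succ, mul_add, Finset.sum_add_distrib, h2]
  field_simp
  ring

/-- positive definite real matrices -/
def PD (A : Matrix (Fin n) (Fin n) ℝ) : Prop :=
  (∀ i j, A i j = A j i) ∧ ∀ x : Fin n → ℝ, x ≠ 0 → 0 < Qf A x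

theorem PD_iff {A : Matrix (Fin n) (Fin n) ℝ} : PD A ↔ A.PosDef := by
  rw [posDef_iff_dotProduct_mulVec]
  refine and_congr ⟨fun h => ?_, fun h i j => ?_⟩ (by simp [Qf])
  · ext i j; simp [h i j]
  · simpa using (h.apply j i)

theorem PD.inv {A : Matrix (Fin n) (Fin n) ℝ} (h : PD A) : PD A⁻¹ := PD_iff.2 (PD_iff.1 h).inv

theorem PD.pos {A : Matrix (Fin (n + 1)) (Fin (n + 1)) ℝ} (h : PD A) : 0 < A 0 0 :=
  (PD_iff.1 h).diag_pos

theorem PD.sc {A : Matrix (Fin (n + 1)) (Fin (n + 1)) ℝ} (h : PD A) : PD (Sc A) := by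
  refine ⟨fun i j => by simp [Sc, h.1 i.succ j.succ, mul_comm], fun x hx => ?_⟩
  have h1 := h.2 (Fin.cons (-(∑ i : Fin n, A 0 i.succ * x i) / A 0 0) x) fun e => hx
    (funext fun i => by simpa using congrFun e i.succ)
  rw [Qf_succ h.1 h.pos.ne'] at h1
  simp only [Fin.cons_zero, Fin.cons_succ] at h1
  rwa [mul_div_cancel₀ _ h.pos.ne', neg_add_cancel, sq, zero_mul, zero_div, zero_add] at h1

theorem PD.coercive {A : Matrix (Fin n) (Fin n) ℝ} (h : PD A) :
    ∃ ε > 0, ∀ x : Fin n → ℝ, ε * ∑ i, x i ^ 2 ≤ Qf A x := by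
  obtain ⟨c, hc, hc'⟩ := (isCompact_sphere (0 : Fin n → ℝ) 1).exists_forall_le'
    (f := Qf A) (a := 0) (by unfold Qf; fun_prop) fun x hx => h.2 x (by rintro rfl; simp at hx)
  refine ⟨c / (n + 1), by positivity, fun x => ?_⟩
  rcases eq_or_ne x 0 with rfl | hx
  · simp [Qf]
  have hn : 0 < ‖x‖ := norm_pos_iff.2 hx
  have h1 := hc' (‖x‖⁻¹ • x) (by simp [norm_smul, hn.ne'])
  have h2 : Qf A x = ‖x‖ ^ 2 * Qf A (‖x‖⁻¹ • x) := by
    simp only [Qf, mulVec_smul, dotProduct_smul, smul_dotProduct, smul_eq_mul]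
    field_simp
  have h3 : ∑ i, x i ^ 2 ≤ (n + 1) * ‖x‖ ^ 2 := by
    refine (Finset.sum_le_card_nsmul _ _ (‖x‖ ^ 2) fun i _ => ?_).trans ?_
    · rw [← sq_abs]; exact pow_le_pow_left₀ (abs_nonneg _) (norm_le_pi_norm x i) 2
    · simp only [Finset.card_univ, Fintype.card_fin, nsmul_eq_mul]; nlinarith [sq_nonneg ‖x‖]
  calc _ ≤ c / (n + 1) * ((n + 1) * ‖x‖ ^ 2) := by gcongr
    _ = ‖x‖ ^ 2 * c := by field_simp
    _ ≤ _ := by rw [h2]; gcongr

theorem summable_pi {g : Fin n → ℤ → ℝ} (h0 : ∀ i k, 0 ≤ g i k) (h : ∀ i, Summable (g i)) :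
    Summable fun x : Fin n → ℤ => ∏ i, g i (x i) := by
  induction n with
  | zero => exact .of_finite
  | succ n ih =>
    rw [← (Fin.consEquiv fun _ => ℤ).summable_iff]
    refine ((h 0).mul_of_nonneg (ih (fun i => h0 i.succ) fun i => h i.succ) (h0 0)
      fun x => Finset.prod_nonneg fun i _ => h0 _ _).congr fun p => ?_
    simp [Fin.prod_univ_succ, Fin.consEquiv]

theorem summable_one {a : ℂ} (ha : 0 < a.re) (b : ℂ) :
    Summable fun k : ℤ => cexp (-π * a * k ^ 2 + 2 * π * b * k) := by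
  refine ((summable_jacobiTheta₂_term_iff (-I * b) (I * a)).2 (by simpa using ha)).congr fun k => ?_
  rw [jacobiTheta₂_term]
  congr 1
  linear_combination (π * a * k ^ 2 - 2 * π * b * k : ℂ) * I_mul_I

/-- complexification -/
def cx (A : Matrix (Fin n) (Fin n) ℝ) : Matrix (Fin n) (Fin n) ℂ := A.map ofReal

theorem Qf_cx (A : Matrix (Fin n) (Fin n) ℝ) (x : Fin n → ℝ) : Qf (cx A) (fun i => x i) = Qf A x := by
  simp [Qf, cx, mulVec, dotProduct]

/-- the Gaussian term -/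
noncomputable def tm (A : Matrix (Fin n) (Fin n) ℝ) (t : ℂ) (b : Fin n → ℂ) (x : Fin n → ℤ) : ℂ :=
  cexp (-π * t * Qf (cx A) (fun i => x i) + 2 * π * ∑ i, b i * x i)

theorem norm_tm (A : Matrix (Fin n) (Fin n) ℝ) (t : ℂ) (b : Fin n → ℂ) (x : Fin n → ℤ) :
    ‖tm A t b x‖ = Real.exp (-π * t.re * Qf A (fun i => x i) + 2 * π * ∑ i, (b i).re * x i) := by
  have := Qf_cx A fun i => x i
  simp only [ofReal_intCast] at this
  simp [tm, norm_exp, this]

theorem PD.summable {A : Matrix (Fin n) (Fin n) ℝ} (h : PD A) {t : ℂ} (ht : 0 < t.re) (b : Fin n → ℂ) :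
    Summable (tm A t b) := by
  obtain ⟨ε, hε, h1⟩ := h.coercive
  refine .of_norm_bounded (summable_pi (g := fun i k =>
    ‖cexp (-π * (t.re * ε : ℝ) * k ^ 2 + 2 * π * b i * k)‖) (fun _ _ => norm_nonneg _)
    fun i => (summable_one (by simpa using mul_pos ht hε) _).norm) fun x => ?_
  rw [norm_tm, ← norm_prod, ← exp_sum, norm_exp, Real.exp_le_exp]
  have h2 := mul_le_mul_of_nonneg_left (h1 fun i => x i) (mul_pos Real.pi_pos ht).le
  simp only [re_sum, add_re, Finset.sum_add_distrib, Finset.mul_sum] at h2 ⊢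
  refine add_le_add ?_ (Finset.sum_le_sum fun i _ => le_of_eq (by simp [mul_assoc]))
  rw [neg_mul, neg_mul, neg_le, ← Finset.sum_neg_distrib]
  refine le_trans (Finset.sum_le_sum fun i _ => le_of_eq ?_) h2
  simp [← ofReal_intCast, ← ofReal_pow, mul_assoc]

theorem PD.summable' {A : Matrix (Fin n) (Fin n) ℝ} (h : PD A) {t : ℂ} (ht : 0 < t.re) (b : Fin n → ℂ) :
    Summable fun y : Fin n → ℤ => cexp (-π / t * Qf (cx A) fun i => y i + I * b i) := by
  have ht' : 0 < (t⁻¹).re := by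
    rw [inv_re]; exact div_pos ht (normSq_pos.2 (by rintro rfl; simp at ht))
  refine ((h.summable ht' (-(I / t) • cx A *ᵥ b)).mul_right (cexp (π / t * Qf (cx A) b))).congr
    fun y => ?_
  have h1 : b ⬝ᵥ cx A *ᵥ (fun i => (y i : ℂ)) = (fun i => (y i : ℂ)) ⬝ᵥ cx A *ᵥ b := by
    rw [dotProduct_mulVec, dotProduct_comm, ← mulVec_transpose]
    congr 2
    ext i j; simp [cx, h.1 i j]
  have h2 : ∑ i, (-(I / t) • cx A *ᵥ b) i * y i = -(I / t) * ((fun i => (y i : ℂ)) ⬝ᵥ cx A *ᵥ b) := by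
    rw [dotProduct, Finset.mul_sum]
    exact Finset.sum_congr rfl fun i _ => by simp only [Pi.smul_apply, smul_eq_mul]; ring
  rw [tm, ← exp_add, h2, show (fun i => (y i : ℂ) + I * b i) = (fun i => (y i : ℂ)) + I • b from rfl]
  congr 1
  simp only [Qf, mulVec_add, mulVec_smul, add_dotProduct, dotProduct_add, dotProduct_smul,
    smul_dotProduct, smul_eq_mul, h1]
  linear_combination (π / t * (b ⬝ᵥ cx A *ᵥ b)) * I_mul_I

theorem PD.mul_inv {A : Matrix (Fin n) (Fin n) ℝ} (h : PD A) : cx A * cx A⁻¹ = 1 := by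
  have := (Matrix.map_mul (L := A) (M := A⁻¹) (f := ofRealHom)).symm
  rw [mul_nonsing_inv _ ((isUnit_iff_isUnit_det A).1 (PD_iff.1 h).isUnit)] at this
  exact this.trans (Matrix.map_one _ (map_zero _) (map_one _))

theorem PD.Qf_inv {A : Matrix (Fin n) (Fin n) ℝ} (h : PD A) (v : Fin n → ℂ) :
    Qf (cx A⁻¹) (cx A *ᵥ v) = Qf (cx A) v := by
  rw [Qf, mulVec_mulVec, mul_eq_one_comm.1 h.mul_inv, one_mulVec, dotProduct_comm, Qf]

theorem cx_Sc (A : Matrix (Fin (n + 1)) (Fin (n + 1)) ℝ) : cx (Sc A) = Sc (cx A) := by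
  ext i j; simp [cx, Sc]

theorem PD.Qf_cx_succ {A : Matrix (Fin (n + 1)) (Fin (n + 1)) ℝ} (h : PD A) (w : Fin (n + 1) → ℂ) :
    Qf (cx A) w = (A 0 0 * w 0 + ∑ i : Fin n, A 0 i.succ * w i.succ) ^ 2 / A 0 0 +
      Qf (cx (Sc A)) fun i => w i.succ := by
  rw [cx_Sc]
  exact Qf_succ (fun i j => congrArg ofReal (h.1 i j)) (ofReal_ne_zero.2 h.pos.ne') w

theorem PD.Qf_inv_succ {A : Matrix (Fin (n + 1)) (Fin (n + 1)) ℝ} (h : PD A) (w : Fin (n + 1) → ℂ) :
    Qf (cx A⁻¹) w = w 0 ^ 2 / A 0 0 +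
      Qf (cx (Sc A)⁻¹) fun i => w i.succ - w 0 * A 0 i.succ / A 0 0 := by
  obtain ⟨v, rfl⟩ : ∃ v, cx A *ᵥ v = w := ⟨cx A⁻¹ *ᵥ w, by rw [mulVec_mulVec, h.mul_inv, one_mulVec]⟩
  rw [h.Qf_inv, h.Qf_cx_succ, ← h.sc.Qf_inv]
  have h0 : (A 0 0 : ℂ) ≠ 0 := ofReal_ne_zero.2 h.pos.ne'
  congr 2
  · simp [cx, mulVec, dotProduct, Fin.sum_univ_succ]
  · ext i
    rw [cx_Sc, Sc_mulVec]
    simp only [cx, mulVec, dotProduct, Fin.sum_univ_succ, map_apply, h.1 i.succ 0]
    field_simp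
    ring

theorem poisson (A : Matrix (Fin n) (Fin n) ℝ) (h : PD A) : ∃ κ : ℂ, ∀ t : ℂ, 0 < t.re →
    ∀ b : Fin n → ℂ, ∑' x, tm A t b x = κ * (1 / t ^ (1 / 2 : ℂ)) ^ n *
      ∑' y : Fin n → ℤ, cexp (-π / t * Qf (cx A⁻¹) fun i => y i + I * b i) := by
  induction n with
  | zero => exact ⟨1, fun t _ b => by simp [tm, Qf]⟩
  | succ n ih =>
  obtain ⟨κ, hκ⟩ := ih _ h.sc
  refine ⟨κ / (A 0 0 : ℂ) ^ (1 / 2 : ℂ), fun t ht b => ?_⟩
  have h0 : (A 0 0 : ℂ) ≠ 0 := ofReal_ne_zero.2 h.pos.ne'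
  have ht0 : t ≠ 0 := by rintro rfl; simp at ht
  have ha : 0 < (A 0 0 * t).re := by simpa using mul_pos h.pos ht
  let c : ℤ → Fin n → ℂ := fun k i => b i.succ + I * ((k + I * b 0) * A 0 i.succ / A 0 0)
  let u : ℤ → ℂ := fun k => cexp (-π / (A 0 0 * t) * (k + I * b 0) ^ 2)
  have h1 : ∀ x : Fin n → ℤ, ∑' k : ℤ, tm A t b (Fin.cons k x) =
      1 / (A 0 0 * t) ^ (1 / 2 : ℂ) * ∑' k : ℤ, u k * tm (Sc A) t (c k) x := fun x => by
    set s : ℂ := ∑ i : Fin n, A 0 i.succ * (x i : ℂ) with hs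
    have e1 : ∀ k : ℤ, tm A t b (Fin.cons k x) =
        cexp (-π * (A 0 0 * t) * k ^ 2 + 2 * π * (b 0 - t * s) * k) *
          cexp (-π * t * (s ^ 2 / A 0 0 + Qf (cx (Sc A)) fun i => x i) +
            2 * π * ∑ i : Fin n, b i.succ * x i) := fun k => by
      rw [tm, h.Qf_cx_succ, ← exp_add, Fin.sum_univ_succ]
      simp only [Fin.cons_zero, Fin.cons_succ, ← hs]
      congr 1
      field_simp
      ring
    simp only [e1, tsum_mul_right, tsum_exp_neg_quadratic ha]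
    rw [mul_assoc, ← tsum_mul_right]
    congr 2
    ext k
    have e2 : ∑ i, c k i * x i = ∑ i : Fin n, b i.succ * x i + I * ((k + I * b 0) * s / A 0 0) := by
      simp only [c, hs, Finset.mul_sum, Finset.sum_div, ← Finset.sum_add_distrib]
      exact Finset.sum_congr rfl fun i _ => by ring
    rw [tm, ← exp_add, ← exp_add, e2]
    congr 1
    field_simp
    linear_combination (-(t ^ 2 * s ^ 2) : ℂ) * I_mul_I
  have hu : Summable u := by
    have ha' : 0 < ((A 0 0 * t)⁻¹).re := by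
      rw [inv_re]; exact div_pos ha (normSq_pos.2 (mul_ne_zero h0 ht0))
    refine ((summable_one ha' (-(I * b 0) / (A 0 0 * t))).mul_right
      (cexp (-π / (A 0 0 * t) * (I * b 0) ^ 2))).congr fun k => ?_
    rw [← exp_add]
    congr 1
    field_simp
    ring
  have h2 : Summable (Function.uncurry fun k x => u k * tm (Sc A) t (c k) x) := by
    refine .of_norm ((hu.norm.mul_of_nonneg (h.sc.summable ht (c 0)).norm (fun _ => norm_nonneg _)
      fun _ => norm_nonneg _).congr fun p => ?_)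
    simp [Function.uncurry, norm_tm, c, add_mul, add_div, ← ofReal_intCast, ← ofReal_mul, ← ofReal_div]
  have h3 := (Fin.consEquiv fun _ => ℤ).summable_iff.2 (h.summable ht b)
  have h4 := (Fin.consEquiv fun _ => ℤ).summable_iff.2 (h.inv.summable' ht b)
  rw [← (Fin.consEquiv fun _ => ℤ).tsum_eq, ← (Fin.consEquiv fun _ => ℤ).tsum_eq]
  refine h3.tsum_prod.trans (((Summable.tsum_comm (f := fun k x => tm A t b (Fin.cons k x))
    h3).symm.trans ?_).trans (congrArg _ h4.tsum_prod.symm))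
  simp only [h1, tsum_mul_left, h2.tsum_comm, hκ t ht]
  rw [← tsum_mul_left, ← tsum_mul_left]
  congr 1
  ext k
  have e3 : ∀ y : Fin n → ℤ, cexp (-π / t * Qf (cx A⁻¹) fun i => (Fin.cons k y : Fin _ → ℤ) i + I * b i) =
      u k * cexp (-π / t * Qf (cx (Sc A)⁻¹) fun i => y i + I * c k i) := fun y => by
    rw [h.Qf_inv_succ, ← exp_add]
    simp only [Fin.cons_zero, Fin.cons_succ]
    have : (fun i : Fin n => (y i : ℂ) + I * b i.succ - (k + I * b 0) * A 0 i.succ / A 0 0) =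
        fun i => y i + I * c k i := funext fun i => by
      linear_combination (-((k + I * b 0) * A 0 i.succ / A 0 0)) * I_mul_I
    rw [this]
    congr 1
    field_simp
    ring
  have e4 : ((A 0 0 : ℂ) * t) ^ (1 / 2 : ℂ) = (A 0 0 : ℂ) ^ (1 / 2 : ℂ) * t ^ (1 / 2 : ℂ) := by
    rw [cpow_def_of_ne_zero (mul_ne_zero h0 ht0), cpow_def_of_ne_zero h0, cpow_def_of_ne_zero ht0,
      log_ofReal_mul h.pos ht0, add_mul, exp_add, ofReal_log h.pos.le]
  refine Eq.trans ?_ (congrArg _ (tsum_congr e3).symm)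
  rw [tsum_mul_left, e4]
  ring

end Cfsg.Agent.L0.Th
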