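import Cfsg.Agent.L0.Th1

/-! The theta series of an even unimodular lattice of rank `24` is a modular form of weight `12`. -/

set_option autoImplicit false

namespace Cfsg.Agent.L0.Th

open Complex Matrix UpperHalfPlane ModularForm MatrixGroups EisensteinSeries
open scoped Real

variable {n : ℕ}

theorem pd_of_int {B : Matrix (Fin n) (Fin n) ℤ} (hs : B.IsSymm) (hp : ∀ x, 0 ≤ Qf B x)
    (hd : B.det ≠ 0) : PD (B.map (Int.cast : ℤ → ℝ)) := by
  have hq : ∀ x : Fin n → ℚ, 0 ≤ Qf (B.map (Int.cast : ℤ → ℝ)) fun i => x i := fun x => by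
    obtain ⟨⟨d, hd⟩, h⟩ := IsLocalization.exist_integer_multiples_of_finite (nonZeroDivisors ℤ) x
    choose y hy using h
    have h1 : (fun i => (y i : ℝ)) = (d : ℝ) • fun i => (x i : ℝ) := funext fun i => by
      have := congrArg (Rat.cast : ℚ → ℝ) (hy i)
      simpa using this
    have h2 : ((Qf B y : ℤ) : ℝ) = Qf (B.map (Int.cast : ℤ → ℝ)) fun i => y i := by
      simp [Qf, mulVec, dotProduct]
    have h3 : (0 : ℝ) < d * d := mul_self_pos.2 (Int.cast_ne_zero.2 (nonZeroDivisors.ne_zero hd))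
    have h4 : (0 : ℝ) ≤ (Qf B y : ℤ) := Int.cast_nonneg (hp y)
    rw [h2, h1, Qf, mulVec_smul, dotProduct_smul, smul_dotProduct, smul_eq_mul, smul_eq_mul,
      ← mul_assoc] at h4
    exact nonneg_of_mul_nonneg_right h4 h3 |> fun h => h
  rw [PD_iff, PosSemidef.posDef_iff_det_ne_zero]
  · rw [← Int.cast_det]; exact Int.cast_ne_zero.2 hd
  refine .of_dotProduct_mulVec_nonneg (by ext i j; simp [hs.apply i j]) fun x => ?_
  refine (DenseRange.piMap fun _ : Fin n => Rat.denseRange_cast (𝕜 := ℝ)).induction_on x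
    (isClosed_le continuous_const (by fun_prop)) fun y => hq y

/-- even unimodular positive definite Gram matrices of size `24` -/
structure EU (B : Matrix (Fin 24) (Fin 24) ℤ) : Prop where
  symm : B.IsSymm
  pos : ∀ x, x ≠ 0 → 0 < Qf B x
  even : ∀ x, 2 ∣ Qf B x
  det : B.det = 1

variable {B : Matrix (Fin 24) (Fin 24) ℤ} {τ : ℂ}

theorem EU.nonneg (h : EU B) (x : Fin 24 → ℤ) : 0 ≤ Qf B x := by
  rcases eq_or_ne x 0 with rfl | hx
  · simp [Qf]
  · exact (h.pos x hx).le

theorem EU.pd (h : EU B) : PD (B.map (Int.cast : ℤ → ℝ)) :=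
  pd_of_int h.symm h.nonneg (h.det ▸ one_ne_zero)

/-- the terms of the theta series -/
noncomputable def tt (B : Matrix (Fin 24) (Fin 24) ℤ) (τ : ℂ) (x : Fin 24 → ℤ) : ℂ :=
  cexp (π * Complex.I * τ * (Qf B x : ℤ))

theorem Qf_int (x : Fin 24 → ℤ) :
    Qf (cx (B.map (Int.cast : ℤ → ℝ))) (fun i => x i) = (Qf B x : ℤ) := by
  simp [Qf, cx, mulVec, dotProduct]

theorem tm_eq : tm (B.map (Int.cast : ℤ → ℝ)) (-Complex.I * τ) 0 = tt B τ := by
  ext x
  simp only [tm, tt, Qf_int, Pi.zero_apply, zero_mul, Finset.sum_const_zero]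
  congr 1
  ring

theorem EU.summable (h : EU B) (hτ : 0 < τ.im) : Summable (tt B τ) :=
  tm_eq ▸ h.pd.summable (by simpa using hτ) 0

theorem norm_tt (x : Fin 24 → ℤ) : ‖tt B τ x‖ = Real.exp (-(π * τ.im * (Qf B x : ℤ))) := by
  simp [tt, norm_exp]

theorem EU.norm_le (h : EU B) {δ : ℝ} (hτ : δ ≤ τ.im) (x : Fin 24 → ℤ) :
    ‖tt B τ x‖ ≤ ‖tt B (δ * Complex.I) x‖ := by
  have : (0 : ℝ) ≤ (Qf B x : ℤ) := Int.cast_nonneg (h.nonneg x)
  simp only [norm_tt, Real.exp_le_exp, neg_le_neg_iff, mul_im, ofReal_re, ofReal_im, Complex.I_im,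
    Complex.I_re, mul_one, mul_zero, add_zero]
  gcongr

theorem EU.th_S (h : EU B) (hτ : 0 < τ.im) : ∑' x, tt B (-τ⁻¹) x = τ ^ 12 * ∑' x, tt B τ x := by
  obtain ⟨κ, hκ⟩ := poisson _ h.pd
  have hu : IsUnit B := (isUnit_iff_isUnit_det B).2 (h.det ▸ isUnit_one)
  have hb : Function.Bijective B.mulVec :=
    ⟨mulVec_injective_of_isUnit hu, mulVec_surjective_iff_isUnit.2 hu⟩
  have key : ∀ τ : ℂ, 0 < τ.im → τ ^ 12 * ∑' x, tt B τ x = κ * ∑' x, tt B (-τ⁻¹) x := fun τ hτ => by
    have h0 : τ ≠ 0 := by rintro rfl; simp at hτ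
    have h1 := hκ (-Complex.I * τ) (by simpa using hτ) 0
    have h2 : (1 / (-Complex.I * τ) ^ (1 / 2 : ℂ)) ^ 24 = (τ ^ 12)⁻¹ := by
      have := cpow_nat_inv_pow (-Complex.I * τ) two_ne_zero
      rw [one_div, inv_pow, show 24 = 2 * 12 from rfl, pow_mul, one_div,
        show (2 : ℂ) = (2 : ℕ) from rfl, this, mul_pow, show 12 = 2 * 6 from rfl, pow_mul, neg_sq, I_sq]
      norm_num
    rw [tm_eq, h2] at h1
    rw [h1, ← mul_assoc, mul_left_comm, mul_inv_cancel₀ (pow_ne_zero _ h0), mul_one,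
      ← (Equiv.ofBijective _ hb).tsum_eq]
    congr 2
    ext x
    have h3 : (fun i => ((B *ᵥ x) i : ℂ) + Complex.I * (0 : Fin 24 → ℂ) i) =
        cx (B.map (Int.cast : ℤ → ℝ)) *ᵥ fun i => x i := by
      ext i; simp [cx, mulVec, dotProduct]
    simp only [Equiv.ofBijective_apply]
    rw [h3, h.pd.Qf_inv, Qf_int, tt]
    congr 1
    field_simp
    rw [I_sq]; ring
  have h1 := key Complex.I (by simp)
  have h2 : ∑' x, tt B Complex.I x ≠ 0 := by
    have e : ∀ x, tt B Complex.I x = ‖tt B Complex.I x‖ := fun x => by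
      rw [norm_tt, tt, ofReal_exp, Complex.I_im]
      congr 1
      push_cast
      linear_combination (π * (Qf B x : ℤ) : ℂ) * I_mul_I
    rw [tsum_congr e, ← ofReal_tsum, ofReal_ne_zero]
    exact ((h.summable (by simp)).norm.tsum_pos (fun _ => norm_nonneg _) 0
      (by rw [norm_tt]; exact Real.exp_pos _)).ne'
  rw [inv_I, neg_neg, show 12 = 4 * 3 from rfl, pow_mul, I_pow_four, one_pow] at h1
  rw [key τ hτ, ← mul_right_cancel₀ h2 h1, one_mul]

theorem EU.tt_eq (h : EU B) (x : Fin 24 → ℤ) :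
    tt B τ x = Function.Periodic.qParam 1 τ ^ (Qf B x / 2).toNat := by
  obtain ⟨k, hk⟩ := h.even x
  have h0 := h.nonneg x
  obtain ⟨m, rfl⟩ := Int.eq_ofNat_of_zero_le (show 0 ≤ k by omega)
  rw [tt, hk, Int.mul_ediv_cancel_left _ two_ne_zero, Int.toNat_natCast, Function.Periodic.qParam,
    ← exp_nat_mul]
  congr 1
  push_cast
  ring

set_option backward.isDefEq.respectTransparency.types false in
theorem EU.slash (h : EU B) (γ : SL(2, ℤ)) :
    (fun z : ℍ => ∑' x, tt B z x) ∣[(12 : ℤ)] γ = fun z : ℍ => ∑' x, tt B z x := by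
  refine SlashInvariantForm.slash_action_generators_SL2Z ?_ ?_ γ
  · ext z
    suffices (∑' x, tt B (-(z : ℂ)⁻¹) x) * ((z : ℂ) ^ 12)⁻¹ = ∑' x, tt B z x by
      rw [SL_slash_apply, UpperHalfPlane.modular_S_smul]
      simpa [denom, ModularGroup.S]
    rw [h.th_S z.2]
    field_simp [z.ne_zero]
  · ext z
    rw [SL_slash_apply, denom, modular_T_smul, ModularGroup.T]
    simp [h.tt_eq, Function.Periodic.qParam, ← exp_periodic (2 * π * Complex.I * z), mul_add, add_comm]

/-- the theta series as a modular form -/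
noncomputable def EU.mf (h : EU B) : ModularForm 𝒮ℒ 12 where
  toFun z := ∑' x, tt B z x
  slash_action_eq' A hA := by
    obtain ⟨A, rfl⟩ := hA
    exact h.slash A
  holo' := by
    rw [UpperHalfPlane.mdifferentiable_iff]
    refine .congr (f := fun z => ∑' x, tt B z x) (fun z hz => ?_) fun z hz => by
      simp [ofComplex_apply_of_im_pos hz]
    have hz' : 0 < z.im := hz
    have ho : IsOpen {w : ℂ | z.im / 2 < w.im} := isOpen_lt continuous_const continuous_im
    refine ((differentiableOn_tsum_of_summable_norm (F := fun x w => tt B w x)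
      (h.summable (τ := (z.im / 2 : ℝ) * Complex.I) (by simpa using hz')).norm
      (fun x => by unfold tt; fun_prop) ho fun x w hw => h.norm_le hw.le x).differentiableAt
      (ho.mem_nhds (half_lt_self hz'))).differentiableWithinAt
  bdd_at_cusps' {c} hc := by
    rw [Subgroup.IsArithmetic.isCusp_iff_isCusp_SL2Z] at hc
    rw [OnePoint.isBoundedAt_iff_forall_SL2Z hc]
    intro γ _
    rw [h.slash, isBoundedAtImInfty_iff]
    exact ⟨_, 1, fun z hz => tsum_of_norm_bounded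
      (h.summable (τ := (1 : ℝ) * Complex.I) (by simp)).norm.hasSum (h.norm_le hz)⟩

theorem EU.coeff (h : EU B) (m : ℕ) :
    (qExpansion 1 h.mf).coeff m = ({x | Qf B x = 2 * m}.ncard : ℂ) := by
  refine (ModularFormClass.qExpansion_coeff_unique (c := fun m : ℕ => ({x | Qf B x = 2 * m}.ncard : ℂ))
    one_pos one_mem_strictPeriods_SL (fun z => ?_) m).symm
  refine (congrArg (HasSum · _) (funext fun m => ?_)).mp
    ((h.summable z.2).hasSum.tsum_fiberwise fun x => (Qf B x / 2).toNat)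
  have e : (fun x => (Qf B x / 2).toNat) ⁻¹' {m} = {x | Qf B x = 2 * m} := by
    ext x
    have := h.even x
    have := h.nonneg x
    simp only [Set.mem_preimage, Set.mem_singleton_iff, Set.mem_ofPred_eq]
    omega
  rw [tsum_congr fun x : (fun x => (Qf B x / 2).toNat) ⁻¹' {m} => (h.tt_eq x).trans
    (congrArg _ x.2), tsum_const, e, Nat.card_coe_set_eq]
  simp

theorem EU.qexp (h : EU B) (h2 : ∀ x, Qf B x ≠ 2) : qExpansion 1 h.mf =
    (7 / 12 : ℂ) • qExpansion 1 E₄ ^ 3 + (5 / 12 : ℂ) • qExpansion 1 E₆ ^ 2 := by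
  let F : ModularForm 𝒮ℒ 12 := h.mf - ((7 / 12 : ℂ) • ModularForm.mcast (by decide) (E₄.pow 3) +
    (5 / 12 : ℂ) • ModularForm.mcast (by decide) (E₆.pow 2))
  have hF : qExpansion 1 F = qExpansion 1 h.mf -
      ((7 / 12 : ℂ) • qExpansion 1 E₄ ^ 3 + (5 / 12 : ℂ) • qExpansion 1 E₆ ^ 2) := by
    rw [FunLike.coe_sub, ModularForm.qExpansion_sub one_pos one_mem_strictPeriods_SL, FunLike.coe_add,
      ModularForm.qExpansion_add one_pos one_mem_strictPeriods_SL, FunLike.coe_smul, FunLike.coe_smul,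
      ModularForm.qExpansion_smul one_pos one_mem_strictPeriods_SL,
      ModularForm.qExpansion_smul one_pos one_mem_strictPeriods_SL, coe_mcast, coe_mcast,
      ModularForm.qExpansion_pow one_pos one_mem_strictPeriods_SL,
      ModularForm.qExpansion_pow one_pos one_mem_strictPeriods_SL]
  have e0 : {x | Qf B x = 2 * (0 : ℕ)} = {0} := by
    ext x
    refine ⟨fun hx => by_contra fun hx0 => (h.pos x hx0).ne' hx, ?_⟩
    rintro rfl
    simp [Qf]
  have e1 : {x | Qf B x = 2 * (1 : ℕ)} = ∅ := Set.eq_empty_of_forall_notMem h2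
  have h0 : F = 0 := sturm_bound_levelOne_nat (k := 12) (by
    refine lt_of_lt_of_le (b := ((2 : ℕ) : ℕ∞)) (by norm_num) (PowerSeries.nat_le_order _ _ fun i hi => ?_)
    rw [hF, map_sub, h.coeff]
    interval_cases i
    · rw [e0]
      norm_num [pow_succ, PowerSeries.coeff_mul, -PowerSeries.coeff_zero_eq_constantCoeff,
        E_qExpansion_coeff_zero _ ⟨2, rfl⟩, E_qExpansion_coeff_zero _ ⟨3, rfl⟩]
    · rw [e1]
      norm_num [pow_succ, PowerSeries.coeff_mul, Finset.Nat.antidiagonal_succ, E₄_qExpansion_coeff_one,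
        E₆_qExpansion_coeff_one, -PowerSeries.coeff_zero_eq_constantCoeff,
        E_qExpansion_coeff_zero _ ⟨2, rfl⟩, E_qExpansion_coeff_zero _ ⟨3, rfl⟩])
  rw [h0, FunLike.coe_zero, qExpansion_zero] at hF
  exact sub_eq_zero.1 hF.symm

theorem E₄_coeff (m : ℕ) : (qExpansion 1 E₄).coeff m =
    if m = 0 then 1 else 240 * ((∑ d ∈ m.divisors, d ^ 3 : ℕ) : ℂ) := by
  rw [E_qExpansion_coeff _ ⟨2, rfl⟩, show bernoulli 4 = -1 / 30 by decide +kernel,
    ArithmeticFunction.sigma_apply]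
  norm_num

theorem E₆_coeff (m : ℕ) : (qExpansion 1 E₆).coeff m =
    if m = 0 then 1 else -504 * ((∑ d ∈ m.divisors, d ^ 5 : ℕ) : ℂ) := by
  rw [E_qExpansion_coeff _ ⟨3, rfl⟩, show bernoulli 6 = 1 / 42 by decide +kernel,
    ArithmeticFunction.sigma_apply]
  norm_num

theorem EU.counts (h : EU B) (h2 : ∀ x, Qf B x ≠ 2) : {x | Qf B x = 4}.ncard = 196560 ∧
    {x | Qf B x = 6}.ncard = 16773120 ∧ {x | Qf B x = 8}.ncard = 398034000 := by
  have a1 : ∑ d ∈ Nat.divisors 1, d * d * d = 1 := by decide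
  have a2 : ∑ d ∈ Nat.divisors 2, d * d * d = 9 := by decide
  have a3 : ∑ d ∈ Nat.divisors 3, d * d * d = 28 := by decide
  have a4 : ∑ d ∈ Nat.divisors 4, d * d * d = 73 := by decide
  have b1 : ∑ d ∈ Nat.divisors 1, d * d * d * d * d = 1 := by decide
  have b2 : ∑ d ∈ Nat.divisors 2, d * d * d * d * d = 33 := by decide
  have b3 : ∑ d ∈ Nat.divisors 3, d * d * d * d * d = 244 := by decide
  have b4 : ∑ d ∈ Nat.divisors 4, d * d * d * d * d = 1057 := by decide
  have c2 := h.coeff 2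
  have c3 := h.coeff 3
  have c4 := h.coeff 4
  rw [h.qexp h2] at c2 c3 c4
  simp only [pow_succ, pow_zero, one_mul, map_add, PowerSeries.coeff_smul, PowerSeries.coeff_mul,
    Finset.Nat.antidiagonal_succ, Finset.Nat.antidiagonal_zero, Finset.sum_cons, Finset.sum_map,
    Finset.sum_singleton, Function.Embedding.prodMap, Function.Embedding.coeFn_mk, Prod.map,
    Function.Embedding.refl_apply, E₄_coeff, E₆_coeff, Nat.succ_eq_add_one, Nat.reduceAdd, a1, a2, a3,
    a4, b1, b2, b3, b4] at c2 c3 c4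
  norm_num at c2 c3 c4
  exact ⟨by exact_mod_cast c2.symm, by exact_mod_cast c3.symm, by exact_mod_cast c4.symm⟩

end Cfsg.Agent.L0.Th
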