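import Cfsg.Agent.L0.Th1

/-! Conway's counting argument modulo `2 Λ` for a lattice with the short vectors of the Leech lattice. -/

set_option autoImplicit false

namespace Cfsg.Agent.L0.Th

open Matrix Finset

/-- integer vectors of length `24` -/
abbrev Z24 : Type := Fin 24 → ℤ

/-- binary vectors of length `24` -/
abbrev F24 : Type := Fin 24 → ZMod 2

/-- reduction modulo `2` -/
def red (x : Z24) : F24 := fun i => x i

/-- the `0`-`1` lift of a binary vector -/
def lft (c : F24) : Z24 := fun i => (c i).val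

theorem red_lft (c : F24) : red (lft c) = c := by ext i; simp [red, lft]

theorem red_add (x y : Z24) : red (x + y) = red x + red y := by ext i; simp [red]

theorem red_eq_iff {x y : Z24} : red x = red y ↔ ∃ w : Z24, x = y + (2 : ℤ) • w := by
  refine ⟨fun h => ?_, ?_⟩
  · choose w hw using fun i => (ZMod.intCast_eq_intCast_iff_dvd_sub _ _ 2).1 (congrFun h i).symm
    exact ⟨w, funext fun i => by have := hw i; simp only [Pi.add_apply, Pi.smul_apply, smul_eq_mul]; omega⟩
  · rintro ⟨w, rfl⟩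
    ext i
    simp [red, show (2 : ZMod 2) = 0 from rfl]

theorem red_neg (x : Z24) : red (-x) = red x := red_eq_iff.2 ⟨-x, by ext i; simp; ring⟩

/-- even lattices of rank `24` with the short vector counts of the Leech lattice -/
structure RL (B : Matrix (Fin 24) (Fin 24) ℤ) : Prop where
  symm : B.IsSymm
  pos : ∀ x, x ≠ 0 → 0 < Qf B x
  even : ∀ x, 2 ∣ Qf B x
  n2 : ∀ x, Qf B x ≠ 2
  n4 : {x | Qf B x = 4}.ncard = 196560
  n6 : {x | Qf B x = 6}.ncard = 16773120
  n8 : {x | Qf B x = 8}.ncard = 398034000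

variable {B : Matrix (Fin 24) (Fin 24) ℤ}

theorem RL.comm (h : RL B) (x y : Z24) : x ⬝ᵥ B *ᵥ y = y ⬝ᵥ B *ᵥ x := by
  rw [dotProduct_mulVec, dotProduct_comm, ← mulVec_transpose, h.symm]

theorem RL.Qf_add (h : RL B) (x y : Z24) : Qf B (x + y) = Qf B x + 2 * (x ⬝ᵥ B *ᵥ y) + Qf B y := by
  simp only [Qf, mulVec_add, add_dotProduct, dotProduct_add, h.comm y x]
  ring

theorem Qf_two (w : Z24) : Qf B ((2 : ℤ) • w) = 4 * Qf B w := by
  simp only [Qf, mulVec_smul, dotProduct_smul, smul_dotProduct, smul_eq_mul]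
  ring

theorem Qf_neg (w : Z24) : Qf B (-w) = Qf B w := by simp [Qf, mulVec_neg]

theorem RL.min4 (h : RL B) {x : Z24} (hx : x ≠ 0) : 4 ≤ Qf B x := by
  have := h.pos x hx
  have := h.even x
  have := h.n2 x
  omega

theorem RL.cong (h : RL B) {x y : Z24} (e : red x = red y) (hx : Qf B x ≤ 8) (hy : Qf B y ≤ 8) :
    x = y ∨ x = -y ∨ Qf B x = 8 ∧ Qf B y = 8 ∧ x ⬝ᵥ B *ᵥ y = 0 := by
  obtain ⟨w, hw⟩ := red_eq_iff.1 e
  by_cases h1 : w = 0
  · left; simp [hw, h1]
  by_cases h2 : y + w = 0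
  · right; left
    rw [hw, ← add_eq_zero_iff_eq_neg, ← smul_zero (2 : ℤ), ← h2]; module
  have h3 := h.min4 h1
  have h4 := h.min4 h2
  have h5 := h.Qf_add x y
  have h6 := h.Qf_add x (-y)
  rw [show x + y = (2 : ℤ) • (y + w) by rw [hw]; module, Qf_two] at h5
  rw [show x + -y = (2 : ℤ) • w by rw [hw]; module, Qf_two, Qf_neg, mulVec_neg, dotProduct_neg] at h6
  omega

theorem RL.card_le (h : RL B) {T : Finset Z24} (h8 : ∀ x ∈ T, Qf B x = 8)
    (ho : ∀ x ∈ T, ∀ y ∈ T, x ≠ y → x ⬝ᵥ B *ᵥ y = 0) : #T ≤ 24 := by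
  have h1 : LinearIndependent ℤ fun x : T => (x : Z24) := by
    rw [Fintype.linearIndependent_iff]
    intro g hg x
    have := congrArg (· ⬝ᵥ B *ᵥ (x : Z24)) hg
    simp only [sum_dotProduct, smul_dotProduct, zero_dotProduct, smul_eq_mul] at this
    rw [Finset.sum_eq_single x (fun y _ hy => by
      rw [ho y y.2 x x.2 fun e => hy (Subtype.ext e), mul_zero]) (by simp)] at this
    have h2 := h8 x x.2
    rw [Qf] at h2
    rw [h2] at this
    omega
  simpa using h1.fintype_card_le_finrank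

theorem RL.half (h : RL B) {T : Finset Z24} (h8 : ∀ x ∈ T, Qf B x = 8) (hn : ∀ x ∈ T, -x ∈ T)
    (hr : ∀ x ∈ T, ∀ y ∈ T, red x = red y) : ∃ U ⊆ T, #T ≤ 2 * #U ∧
      ∀ x ∈ U, ∀ y ∈ U, x ≠ y → x ⬝ᵥ B *ᵥ y = 0 := by
  classical
  let f : Z24 → ℕ := Encodable.encode
  have hf : Function.Injective f := Encodable.encode_injective
  refine ⟨T.filter fun x => f (-x) < f x, filter_subset _ _, ?_, fun x hx y hy hxy => ?_⟩
  · refine (card_le_card (t := T.filter (fun x => f (-x) < f x) ∪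
      (T.filter fun x => f (-x) < f x).image Neg.neg) fun x hx => ?_).trans
      ((card_union_le _ _).trans (by rw [two_mul]; exact Nat.add_le_add_left card_image_le _))
    rcases lt_trichotomy (f (-x)) (f x) with h1 | h1 | h1
    · exact mem_union_left _ (mem_filter.2 ⟨hx, h1⟩)
    · have h2 : x = 0 := funext fun i => by
        have := congrFun (hf h1) i
        simp only [Pi.neg_apply, Pi.zero_apply] at this ⊢
        omega
      have := h8 x hx
      simp [h2, Qf] at this
    · exact mem_union_right _ (mem_image.2 ⟨-x, mem_filter.2 ⟨hn x hx, by rwa [neg_neg]⟩, neg_neg x⟩)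
  · obtain ⟨hx, hx'⟩ := mem_filter.1 hx
    obtain ⟨hy, hy'⟩ := mem_filter.1 hy
    rcases h.cong (hr x hx y hy) (h8 x hx).le (h8 y hy).le with h1 | rfl | h1
    · exact absurd h1 hxy
    · rw [neg_neg] at hx'; omega
    · exact h1.2.2

theorem RL.main (h : RL B) : (∃ U : Finset Z24, #U = 24 ∧ (∀ x ∈ U, Qf B x = 8) ∧
    (∀ x ∈ U, ∀ y ∈ U, red x = red y) ∧ ∀ x ∈ U, ∀ y ∈ U, x ≠ y → x ⬝ᵥ B *ᵥ y = 0) ∧
      #{c : F24 | ¬ 4 ∣ Qf B (lft c)} = 8386560 := by
  classical
  have hS : ∀ (k : ℤ) (m : ℕ), {x | Qf B x = k}.ncard = m + 1 →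
      ∃ S : Finset Z24, #S = m + 1 ∧ ∀ x, x ∈ S ↔ Qf B x = k := fun k m hm => by
    have hf := Set.finite_of_ncard_ne_zero (hm.trans_ne m.succ_ne_zero)
    exact ⟨hf.toFinset, by rw [← hm, Set.ncard_eq_toFinset_card _ hf], fun x => by simp⟩
  obtain ⟨S4, c4, m4⟩ := hS _ _ h.n4
  obtain ⟨S6, c6, m6⟩ := hS _ _ h.n6
  obtain ⟨S8, c8, m8⟩ := hS _ _ h.n8
  have hb : ∀ (S : Finset Z24), (∀ x ∈ S, Qf B x < 8) → #S ≤ 2 * #(S.image red) := fun S hS =>
    card_le_mul_card_image S 2 fun c hc => by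
      obtain ⟨y, hy, rfl⟩ := mem_image.1 hc
      refine (card_le_card (t := {y, -y}) fun x hx => ?_).trans card_le_two
      obtain ⟨hx, e⟩ := mem_filter.1 hx
      have := hS x hx
      rcases h.cong e (hS x hx).le (hS y hy).le with h1 | h1 | h1
      · simp [h1]
      · simp [h1]
      · omega
  have b4 := hb S4 fun x hx => by rw [(m4 x).1 hx]; norm_num
  have b6 := hb S6 fun x hx => by rw [(m6 x).1 hx]; norm_num
  have hU : ∀ c, ∃ U ⊆ S8.filter fun x => red x = c, #(S8.filter fun x => red x = c) ≤ 2 * #U ∧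
      ∀ x ∈ U, ∀ y ∈ U, x ≠ y → x ⬝ᵥ B *ᵥ y = 0 := fun c =>
    h.half (fun x hx => (m8 x).1 (mem_filter.1 hx).1) (fun x hx => mem_filter.2
      ⟨(m8 _).2 ((Qf_neg x).trans ((m8 x).1 (mem_filter.1 hx).1)), (red_neg x).trans (mem_filter.1 hx).2⟩)
      fun x hx y hy => (mem_filter.1 hx).2.trans (mem_filter.1 hy).2.symm
  choose U hU1 hU2 hU3 using hU
  have hU4 : ∀ c, #(U c) ≤ 24 := fun c =>
    h.card_le (fun x hx => (m8 x).1 (mem_filter.1 (hU1 c hx)).1) (hU3 c)
  have b8 : #S8 ≤ 48 * #(S8.image red) := card_le_mul_card_image S8 48 fun c _ => by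
    have := hU2 c
    have := hU4 c
    omega
  have hd : ∀ {S T : Finset Z24} {k l : ℤ}, (∀ x, x ∈ S ↔ Qf B x = k) → (∀ x, x ∈ T ↔ Qf B x = l) →
      k < l → l ≤ 8 → Disjoint (S.image red) (T.image red) := fun {S T k l} hS hT hk hl => by
    refine disjoint_left.2 fun c hc hc' => ?_
    obtain ⟨x, hx, rfl⟩ := mem_image.1 hc
    obtain ⟨y, hy, e⟩ := mem_image.1 hc'
    rw [hS] at hx
    rw [hT] at hy
    rcases h.cong e (by omega) (by omega) with rfl | rfl | h1
    · omega
    · rw [Qf_neg] at hy; omega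
    · omega
  have m0 : ∀ x, x ∈ ({0} : Finset Z24) ↔ Qf B x = 0 := fun x =>
    ⟨fun hx => by simp [mem_singleton.1 hx, Qf], fun hx => mem_singleton.2
      (by_contra fun hx0 => (h.pos x hx0).ne' hx)⟩
  have e1 : #(image red {0} ∪ S4.image red ∪ S6.image red ∪ S8.image red) =
      1 + #(S4.image red) + #(S6.image red) + #(S8.image red) := by
    rw [card_union_of_disjoint, card_union_of_disjoint, card_union_of_disjoint, image_singleton,
      card_singleton]
    · exact hd m0 m4 (by norm_num) (by norm_num)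
    · exact disjoint_union_left.2 ⟨hd m0 m6 (by norm_num) (by norm_num), hd m4 m6 (by norm_num) (by norm_num)⟩
    · exact disjoint_union_left.2 ⟨disjoint_union_left.2 ⟨hd m0 m8 (by norm_num) le_rfl,
        hd m4 m8 (by norm_num) le_rfl⟩, hd m6 m8 (by norm_num) le_rfl⟩
  have e2 : Fintype.card F24 = 16777216 := by simp
  have e3 := card_le_univ (image red {0} ∪ S4.image red ∪ S6.image red ∪ S8.image red)
  have e4 := eq_univ_of_card (image red {0} ∪ S4.image red ∪ S6.image red ∪ S8.image red) (by omega)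
  refine ⟨?_, ?_⟩
  · by_contra hc
    have b8' : #S8 ≤ 46 * #(S8.image red) := card_le_mul_card_image S8 46 fun c _ => by
      have := hU2 c
      have := hU4 c
      have : #(U c) ≠ 24 := fun e => hc ⟨U c, e, fun x hx => (m8 x).1 (mem_filter.1 (hU1 c hx)).1,
        fun x hx y hy => (mem_filter.1 (hU1 c hx)).2.trans (mem_filter.1 (hU1 c hy)).2.symm, hU3 c⟩
      omega
    omega
  · have key : ∀ x, 4 ∣ Qf B (lft (red x)) - Qf B x := fun x => by
      obtain ⟨w, hw⟩ := red_eq_iff.1 (red_lft (red x))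
      rw [hw, h.Qf_add, Qf_two, mulVec_smul, dotProduct_smul, smul_eq_mul]
      omega
    rw [show ({c : F24 | ¬ 4 ∣ Qf B (lft c)} : Finset F24) = S6.image red from ?_]
    · omega
    ext c
    rw [mem_filter, and_iff_right (mem_univ c)]
    refine ⟨fun hc => ?_, fun hc => ?_⟩
    · have := e4 ▸ mem_univ c
      simp only [mem_union] at this
      rcases this with ((h1 | h1) | h1) | h1
      · obtain ⟨x, hx, rfl⟩ := mem_image.1 h1
        have := key x
        rw [m0] at hx; omega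
      · obtain ⟨x, hx, rfl⟩ := mem_image.1 h1
        have := key x
        rw [m4] at hx; omega
      · exact h1
      · obtain ⟨x, hx, rfl⟩ := mem_image.1 h1
        have := key x
        rw [m8] at hx; omega
    · obtain ⟨x, hx, rfl⟩ := mem_image.1 hc
      have := key x
      rw [m6] at hx; omega

theorem RL.nondeg (h : RL B) {u : Z24} (hu : ∀ x, 2 ∣ u ⬝ᵥ B *ᵥ x) : ∃ w : Z24, u = (2 : ℤ) • w := by
  classical
  let s : F24 → ℤ := fun c => if 4 ∣ Qf B (lft c) then 1 else -1
  let β : F24 → F24 → ℤ := fun c d => if 2 ∣ lft c ⬝ᵥ B *ᵥ lft d then 1 else -1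
  have hl : ∀ c d, ∃ w : Z24, lft (c + d) = lft c + lft d + (2 : ℤ) • w := fun c d =>
    red_eq_iff.1 (by rw [red_add, red_lft, red_lft, red_lft])
  have hs : ∀ c d, s (c + d) = s c * s d * β c d := fun c d => by
    obtain ⟨w, hw⟩ := hl c d
    have := h.even (lft c)
    have := h.even (lft d)
    simp only [s, β, hw]
    rw [h.Qf_add, h.Qf_add, Qf_two, mulVec_smul, dotProduct_smul, smul_eq_mul]
    split_ifs <;> omega
  have hβ : ∀ c c' d, β (c + c') d = β c d * β c' d := fun c c' d => by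
    obtain ⟨w, hw⟩ := hl c c'
    simp only [β, hw, add_dotProduct, smul_dotProduct, smul_eq_mul]
    split_ifs <;> omega
  have hss : ∀ c, s c * s c = 1 := fun c => by simp only [s]; split_ifs <;> norm_num
  have e2 : Fintype.card F24 = 16777216 := by simp
  have hS : ∑ c, s c = 4096 := by
    have h1 := h.main.2
    have h2 := card_filter_add_card_filter_not (s := (univ : Finset F24)) fun c => 4 ∣ Qf B (lft c)
    rw [card_univ, e2, h1] at h2
    simp only [s, sum_ite, sum_const, h1, show #{c : F24 | 4 ∣ Qf B (lft c)} = 8390656 by omega]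
    norm_num
  have hT : ∀ d, ∑ c, β c d = if ∀ c, β c d = 1 then 16777216 else 0 := fun d => by
    split_ifs with h1
    · simp [h1]
    · obtain ⟨c₀, h1⟩ := not_forall.1 h1
      have h2 : β c₀ d = -1 := by simp only [β] at h1 ⊢; split_ifs at h1 ⊢ <;> simp_all
      have h3 := Equiv.sum_comp (Equiv.addRight c₀) fun c => β c d
      simp only [Equiv.coe_addRight, hβ, h2, mul_neg, mul_one, sum_neg_distrib] at h3
      omega
  have h1 : ∑ d with ∀ c, β c d = 1, s d = 1 := by
    have h2 : (∑ c, s c) * ∑ d, s d = ∑ d, s d * ∑ c, β c d := by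
      simp only [mul_sum, sum_mul]
      rw [sum_comm, sum_comm (f := fun d c => s d * β c d)]
      refine sum_congr rfl fun c _ => ?_
      rw [← Equiv.sum_comp (Equiv.addLeft c)]
      refine sum_congr rfl fun d _ => ?_
      rw [Equiv.coe_addLeft, hs, ← mul_assoc, ← mul_assoc, hss, one_mul]
    simp only [hS, hT, mul_ite, mul_zero, ← sum_filter, ← sum_mul] at h2
    omega
  have hsym : ∀ c d, β c d = β d c := fun c d => by simp only [β, h.comm (lft c)]
  have h2 : ∀ d, (∀ c, β c d = 1) → s d = 1 := fun d hd => by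
    have h3 := sum_bij (s := {d | ∀ c, β c d = 1}) (t := {d | ∀ c, β c d = 1}) (fun a _ => a + d)
      (f := fun a => s a * s d) (g := s)
      (fun a ha => mem_filter.2 ⟨mem_univ _, fun c => by
        rw [hsym, hβ, hsym a, hsym d, (mem_filter.1 ha).2, hd, one_mul]⟩)
      (fun a _ b _ e => add_right_cancel e) (fun b hb => ⟨b + d, mem_filter.2 ⟨mem_univ _, fun c => by
        rw [hsym, hβ, hsym b, hsym d, (mem_filter.1 hb).2, hd, one_mul]⟩, by
          rw [add_assoc, CharTwo.add_self_eq_zero, add_zero]⟩) fun a _ => by rw [hs, hd, mul_one]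
    rwa [← sum_mul, h1, one_mul] at h3
  rw [sum_congr rfl fun d hd => h2 d (mem_filter.1 hd).2, sum_const, nsmul_eq_mul, mul_one,
    Nat.cast_eq_one, card_eq_one] at h1
  obtain ⟨a, ha⟩ := h1
  have h3 : ∀ v : Z24, (∀ x, 2 ∣ v ⬝ᵥ B *ᵥ x) → red v = a := fun v hv => by
    rw [← mem_singleton, ← ha]
    refine mem_filter.2 ⟨mem_univ _, fun c => if_pos ?_⟩
    obtain ⟨w, hw⟩ := red_eq_iff.1 (red_lft (red v))
    have := hv (lft c)
    rw [h.comm, hw, add_dotProduct, smul_dotProduct, smul_eq_mul]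
    omega
  simpa using red_eq_iff.1 ((h3 u hu).trans (h3 0 (by simp)).symm)

end Cfsg.Agent.L0.Th
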